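import Cfsg.Agent.H9.PLen
import Cfsg.Agent.H21.Base1
import Cfsg.Agent.H1.Generation

/-! Solvable groups with one class of involutions: counting and the linear lemma. -/

set_option autoImplicit false
set_option linter.style.haveILetI false

namespace Cfsg.Agent.H10.OC

open Subgroup Cfsg.Agent.H20 Cfsg.Agent.H21
open scoped commutatorElement

variable {G : Type*} [Group G] [Finite G]

/-- `N` is transitive on the involutions. -/
def Tr (N : Subgroup G) : Prop :=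
  ∀ x y : G, x ≠ 1 → x ^ 2 = 1 → y ≠ 1 → y ^ 2 = 1 → ∃ n ∈ N, n * x * n⁻¹ = y

theorem half_spec {x : G} (h1 : x ≠ 1) (h2 : ∃ k, x ^ 2 ^ k = 1) :
    x ^ (orderOf x / 2) ≠ 1 ∧ (x ^ (orderOf x / 2)) ^ 2 = 1 := by
  obtain ⟨k, hk⟩ := h2
  obtain ⟨j, -, hj⟩ := (Nat.dvd_prime_pow Nat.prime_two).1 (orderOf_dvd_of_pow_eq_one hk)
  obtain _ | j := j
  · exact absurd (orderOf_eq_one_iff.1 hj) h1
  have e : orderOf x / 2 = 2 ^ j := by rw [hj, pow_succ, Nat.mul_div_cancel _ two_pos]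
  rw [e]
  refine ⟨fun h => ?_, by rw [← pow_mul, ← pow_succ, ← hj, pow_orderOf_eq_one]⟩
  have := Nat.le_of_dvd (by positivity) (orderOf_dvd_of_pow_eq_one h)
  rw [hj, pow_succ] at this
  have : 0 < 2 ^ j := by positivity
  omega

theorem dvd_card {N V : Subgroup G} (hV : ∀ x, x ∈ V ↔ x ^ 2 = 1) (hT : Tr N) {X : Set G}
    (hX : ∀ n ∈ N, ∀ x ∈ X, n * x * n⁻¹ ∈ X) (h1 : (1 : G) ∉ X) (h2 : ∀ x ∈ X, ∃ k, x ^ 2 ^ k = 1) :
    Nat.card V - 1 ∣ X.ncard := by
  classical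
  haveI := Fintype.ofFinite G
  let f : G → G := fun x => x ^ (orderOf x / 2)
  have hf : ∀ n x, f (n * x * n⁻¹) = n * f x * n⁻¹ := fun n x => by
    have : orderOf (n * x * n⁻¹) = orderOf x := orderOf_injective (MulAut.conj n).toMonoidHom (MulAut.conj n).injective x
    simp only [f, this, conj_pow]
  let t : Finset G := ((V : Set G).toFinset).erase 1
  have ht : t.card = Nat.card V - 1 := by
    rw [Finset.card_erase_of_mem (by simp), ← Set.ncard_eq_toFinset_card']; rfl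
  have mt : ∀ v, v ∈ t ↔ v ≠ 1 ∧ v ^ 2 = 1 := fun v => by simp [t, hV]
  rw [← ht, Set.ncard_eq_toFinset_card', Finset.card_eq_sum_card_fiberwise (f := f) (s := X.toFinset) (t := t) fun x hx => by
    have hx : x ∈ X := by simpa using hx
    exact (mt _).2 (half_spec (fun e => h1 (e ▸ hx)) (h2 x hx))]
  rcases t.eq_empty_or_nonempty with e | ⟨b, hb⟩
  · simp [e]
  rw [Finset.sum_const_nat (m := (X.toFinset.filter (f · = b)).card) fun a ha => ?_]
  · exact dvd_mul_right _ _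
  obtain ⟨n, hn, e⟩ := hT a b ((mt _).1 ha).1 ((mt _).1 ha).2 ((mt _).1 hb).1 ((mt _).1 hb).2
  refine Finset.card_bij' (fun x _ => n * x * n⁻¹) (fun x _ => n⁻¹ * x * n⁻¹⁻¹) ?_ ?_ ?_ ?_
  · intro x hx
    simp only [Finset.mem_filter, Set.mem_toFinset] at hx ⊢
    exact ⟨hX n hn x hx.1, by rw [hf, hx.2, e]⟩
  · intro x hx
    simp only [Finset.mem_filter, Set.mem_toFinset] at hx ⊢
    exact ⟨hX _ (inv_mem hn) x hx.1, by rw [hf, hx.2, ← e]; group⟩
  · intro x _; group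
  · intro x _; group

theorem le_rel {M V B U : Subgroup G} (hV : ∀ x, x ∈ V ↔ x ^ 2 = 1) (hT : Tr M) (h2 : Even (♯V))
    (hU : IsPGroup 2 U) (hBU : B < U) (hB : M ≤ N⟦B⟧) (hU' : M ≤ N⟦U⟧) : ♯V ≤ B.relIndex U := by
  have h := dvd_card hV hT (X := (U : Set G) \ B)
    (fun n hn x hx => ⟨conj_mem_of_norm (hU' hn) hx.1, fun e => hx.2 (by
      simpa [mul_assoc] using conj_mem_of_norm' (hB hn) e)⟩) (fun h => h.2 B.one_mem)
    fun x hx => (hU ⟨x, hx.1⟩).imp fun k hk => congrArg Subtype.val hk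
  have e : B.relIndex U * ♯B = ♯U := by
    rw [relIndex, ← Nat.card_congr (subgroupOfEquivOfLe hBU.le).toEquiv, index_mul_card]
  rw [Set.ncard_diff hBU.le, show (U : Set G).ncard = ♯U from rfl, show (B : Set G).ncard = ♯B from rfl, ← e,
    ← Nat.sub_one_mul] at h
  obtain ⟨b, hb⟩ := IsPGroup.iff_card.1 (hU.to_le hBU.le)
  have hp : 0 < ♯V := Nat.card_pos
  have ho : Odd (♯V - 1) := Nat.Even.sub_odd hp h2 odd_one
  have h3 := (Nat.Coprime.dvd_mul_right (hb ▸ (Nat.coprime_two_right.2 ho).pow_right b)).1 h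
  have h4 : B.relIndex U ≠ 1 := fun e => hBU.not_ge (relIndex_eq_one.1 e)
  have h5 : B.relIndex U ≠ 0 := fun e0 => by rw [e0, zero_mul] at e; exact Nat.card_pos.ne e
  have := Nat.le_of_dvd (by omega) h3
  omega

/-- a hyperplane and an inverted element -/
theorem exists_hyp {Γ : Type*} [Group Γ] [Finite Γ] (hΓ : Group.IsSolvable Γ) (hO : pCore 2 Γ = ⊥)
    {E : Subgroup Γ} (h1 : E ≠ ⊥) (h2 : ∀ e ∈ E, e * e = 1) :
    ∃ t ∈ normalClosure (E : Set Γ), t ≠ 1 ∧ Odd (orderOf t) ∧ ∃ Y ≤ E, Y.relIndex E = 2 ∧ Y ≤ C₁⟦t⟧ ∧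
      ∃ x ∈ E, x * t * x⁻¹ = t⁻¹ := by
  haveI : Fact (Nat.Prime 2) := ⟨Nat.prime_two⟩
  have inv : ∀ e ∈ E, e⁻¹ = e := fun e he => inv_eq_of_mul_eq_one_right (h2 e he)
  have hc : IsMulCommutative E := comm_iff.2 fun a ha b hb => by
    rw [← inv _ (mul_mem ha hb), mul_inv_rev, inv a ha, inv b hb]
  have hE : IsPGroup 2 E := fun e => ⟨1, Subtype.ext (by simpa [pow_two] using h2 e e.2)⟩
  have hM := H1.coprime_card_pPrimeCore 2 Γ
  have hcop := H1.coprime_card_of_isPGroup_of_coprime hE hM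
  by_contra! h
  have : pPrimeCore 2 Γ ≤ C⟦E⟧ := H1.le_of_forall_centralizer_le (by rw [normalizer_eq_top]; exact le_top) hcop
    fun B hB ⟨a, ha, e⟩ c hc' => by
      by_contra hn
      have hcB : ∀ b ∈ B, b * c = c * b := mem_cent.1 hc'.2
      have hac : a * c ≠ c * a := fun e1 => hn (by
        rw [← e, cent_sup, cent_zpowers]; exact ⟨hc'.2, mem_cent1.2 e1.symm⟩)
      have haB : a ∉ B := fun e1 => hac (hcB a e1)
      have hM1 : c⁻¹ * (a * c * a⁻¹) ∈ pPrimeCore 2 Γ := mul_mem (inv_mem hc'.1) (Normal.conj_mem inferInstance _ hc'.1 _)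
      refine h (c⁻¹ * (a * c * a⁻¹)) ?_ (fun e1 => hac ?_) ?_ B hB ?_ (fun b hb => mem_cent1.2 ?_) a ha ?_
      · have := mul_mem (Normal.conj_mem (inferInstance : (normalClosure (E : Set Γ)).Normal) _
          (subset_normalClosure ha) c⁻¹) (inv_mem (subset_normalClosure (s := (E : Set Γ)) ha))
        simpa [mul_assoc] using this
      · rw [inv_mul_eq_one, eq_mul_inv_iff_mul_eq] at e1; exact e1.symm
      · exact Nat.coprime_two_right.1 (hM.coprime_dvd_left (by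
          simpa using orderOf_dvd_natCard (⟨_, hM1⟩ : pPrimeCore 2 Γ)))
      · rw [relIndex, index_eq_two_iff]
        refine ⟨⟨a, ha⟩, fun ⟨y, hy⟩ => ?_⟩
        simp only [mem_subgroupOf, coe_mul]
        have hy' := hy
        rw [← e] at hy'
        haveI := hc
        have hN : zpowers a ≤ N⟦B⟧ := le_norm_of_comm hc (zpowers_le.2 ha) hB
        rw [← SetLike.mem_coe, coe_mul_of_right_le_normalizer_left _ _ hN] at hy'
        obtain ⟨b, hb, z, ⟨k, rfl⟩, rfl⟩ := hy'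
        have ha2 : a ^ (2 : ℤ) = 1 := by rw [zpow_two, h2 a ha]
        rcases Int.even_or_odd' k with ⟨j, rfl | rfl⟩
        · simp only [zpow_mul, ha2, one_zpow, mul_one]
          exact .inr ⟨hb, fun e1 => haB ((mul_mem_cancel_left hb).1 e1)⟩
        · simp only [zpow_add, zpow_mul, ha2, one_zpow, one_mul, zpow_one, mul_assoc, h2 a ha, mul_one]
          exact .inl ⟨hb, fun e1 => haB ((mul_mem_cancel_left hb).1 e1)⟩
      · have e1 : Commute b c := hcB b hb
        have e2 : Commute b a := comm_iff.1 hc b (hB hb) a ha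
        exact (e1.inv_right.mul_right ((e2.mul_right e1).mul_right e2.inv_right)).eq
      · rw [inv a ha]
        simp only [mul_inv_rev, inv a ha, inv_inv, mul_assoc, h2 a ha, mul_one]
  have h3 := (cent_symm this).trans (H9.centralizer_pPrimeCore_le_of_isPSolvable (H9.isPSolvable_of_isSolvable hΓ) hO)
  exact h1 (by rw [← H1.inf_pPrimeCore_eq_bot hE, inf_eq_left.2 h3])

end Cfsg.Agent.H10.OC
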