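import Cfsg.Agent.H10.OC1

/-! Solvable groups with one class of involutions: the linear lemma. -/

set_option autoImplicit false
set_option linter.style.haveILetI false

namespace Cfsg.Agent.H10.OC

open Subgroup Cfsg.Agent.H20 Cfsg.Agent.H21
open scoped commutatorElement

theorem lin {X : Type*} [Group X] [Finite X] (hX : Group.IsSolvable X) {W M : Subgroup X} [W.Normal]
    (S : Sylow 2 X) (hW : ∀ w ∈ W, w * w = 1) (hM : M ≤ N⟦(S : Subgroup X)⟧)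
    (h1 : ∀ w ∈ W, ∀ e ∈ (S : Subgroup X), w⁻¹ * (e * w * e⁻¹) ∈ C⟦(S : Subgroup X)⟧)
    (h2 : ∀ u ∈ W ⊓ C⟦(S : Subgroup X)⟧, ∀ v ∈ W ⊓ C⟦(S : Subgroup X)⟧, u ≠ 1 → v ≠ 1 → ∃ n ∈ M, n * u * n⁻¹ = v)
    (h3 : ∀ g ∈ normalClosure ((S : Subgroup X) : Set X), ∀ u ∈ W ⊓ C⟦(S : Subgroup X)⟧,
      g * u * g⁻¹ ∈ C⟦(S : Subgroup X)⟧ → g * u * g⁻¹ = u)
    (h4 : ∀ Y ≤ (S : Subgroup X), M ≤ N⟦Y⟧ → Y.relIndex S ≠ 2)
    (h5 : ∀ W', W ⊓ C⟦(S : Subgroup X)⟧ ≤ W' → W' ≤ W → W'.Normal → W' = W) : (S : Subgroup X) ≤ C⟦W⟧ := by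
  haveI : Fact (Nat.Prime 2) := ⟨Nat.prime_two⟩
  by_contra hS
  have inv : ∀ e ∈ W, e⁻¹ = e := fun e he => inv_eq_of_mul_eq_one_right (hW e he)
  haveI hc : IsMulCommutative W := comm_iff.2 fun a ha b hb => by
    rw [← inv _ (mul_mem ha hb), mul_inv_rev, inv a ha, inv b hb]
  have hWp : IsPGroup 2 W := fun e => ⟨1, Subtype.ext (by simpa [pow_two] using hW e e.2)⟩
  have cW : ∀ g, ∀ w ∈ W, g * w * g⁻¹ ∈ W := fun g w hw => Normal.conj_mem inferInstance _ hw _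
  let ρ := QuotientGroup.mk' C⟦W⟧
  have hρ : Function.Surjective ρ := QuotientGroup.mk'_surjective _
  have kρ : ∀ {g h}, ρ g = ρ h → g⁻¹ * h ∈ C⟦W⟧ := fun e => QuotientGroup.eq.1 e
  have act : ∀ {g h}, ρ g = ρ h → ∀ w ∈ W, g * w * g⁻¹ = h * w * h⁻¹ := fun {g h} e w hw => by
    have := mem_cent.1 (kρ e) w hw
    calc g * w * g⁻¹ = g * (w * (g⁻¹ * h)) * h⁻¹ := by group
      _ = _ := by rw [this]; group
  have hO : pCore 2 (X ⧸ C⟦W⟧) = ⊥ := by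
    have e := h5 (W ⊓ C⟦(pCore 2 (X ⧸ C⟦W⟧)).comap ρ⟧) (fun u hu => ⟨hu.1, mem_cent.2 fun p hp => by
      obtain ⟨s, hs, e⟩ := H1.pCore_le_sylow (S.mapSurjective hρ) hp
      have := act e u hu.1
      rw [mem_cent.1 hu.2 s hs, mul_inv_cancel_right, eq_mul_inv_iff_mul_eq] at this
      exact this.symm⟩) inf_le_left inferInstance
    refine eq_bot_iff.2 fun p hp => ?_
    obtain ⟨p, rfl⟩ := hρ p
    exact (QuotientGroup.eq_one_iff p).2 (cent_symm (e.ge.trans inf_le_right) hp)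
  obtain ⟨t0, ht1, ht2, ht3, Y0, hY1, hY2, hY3, _, ⟨x, hx, rfl⟩, hxt⟩ := exists_hyp (E := (S : Subgroup X).map ρ)
    inferInstance hO (fun e => hS (by rwa [Subgroup.map_eq_bot_iff, QuotientGroup.ker_mk'] at e)) (by
      rintro _ ⟨s, hs, rfl⟩
      rw [← map_mul]
      refine (QuotientGroup.eq_one_iff _).2 (mem_cent.2 fun w hw => ?_)
      have e1 := mem_cent.1 (h1 w hw s hs) s hs
      have e2 := hW _ (mul_mem (inv_mem hw) (cW s w hw))
      symm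
      rw [← mul_inv_eq_iff_eq_mul]
      calc s * s * w * (s * s)⁻¹ = (s * w * s⁻¹) * (s * (w⁻¹ * (s * w * s⁻¹))) * s⁻¹ := by group
        _ = w * (w⁻¹ * (s * w * s⁻¹) * (w⁻¹ * (s * w * s⁻¹))) := by rw [e1]; group
        _ = w := by rw [e2, mul_one])
  obtain ⟨t, ht, hto, ht1', hxt', hYt⟩ : ∃ t ∈ normalClosure ((S : Subgroup X) : Set X), Odd (orderOf t) ∧
      t ∉ C⟦W⟧ ∧ ρ (x * t * x⁻¹) = ρ t⁻¹ ∧ ∀ y ∈ Y0, y * ρ t = ρ t * y := by
    rw [coe_map, ← map_normalClosure _ _ hρ] at ht1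
    obtain ⟨t, ht, rfl⟩ := ht1
    obtain ⟨a, b, hb, e⟩ := Nat.exists_eq_two_pow_mul_odd (orderOf_pos t).ne'
    refine ⟨t ^ 2 ^ a, pow_mem ht _, ?_, fun h => ht2 ?_, ?_, fun y hy => ?_⟩
    · rw [orderOf_pow_of_dvd (by positivity) ⟨b, e⟩, e, Nat.mul_div_cancel_left _ (by positivity)]; exact hb
    · have : ρ t ^ 2 ^ a = 1 := by rw [← map_pow]; exact (QuotientGroup.eq_one_iff _).2 h
      exact orderOf_eq_one_iff.1 (((Nat.coprime_two_right.2 ht3).pow_right a).eq_one_of_dvd (orderOf_dvd_of_pow_eq_one this))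
    · rw [← conj_pow, map_pow, map_mul, map_mul, map_inv, hxt, map_inv, map_pow, inv_pow]
    · rw [map_pow]; exact (Commute.pow_right (mem_cent1.1 (hY3 hy)) _).eq
  set Y := Y0.comap ρ ⊓ S with hY
  have hY2' : Y.relIndex S = 2 := by rw [hY, inf_relIndex_right, relIndex_comap, hY2]
  have hcop : (♯(zpowers t)).Coprime (♯W) :=
    (H1.coprime_card_of_isPGroup_of_coprime hWp (by rw [Nat.card_zpowers]; exact Nat.coprime_two_right.2 hto)).symm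
  have hAW : zpowers t ≤ N⟦W⟧ := by rw [normalizer_eq_top]; exact le_top
  have F1 : ∀ y ∈ Y, ∀ w ∈ W, t * (w⁻¹ * (y * w * y⁻¹)) * t⁻¹ = w⁻¹ * (y * w * y⁻¹) := fun y hy w hw => by
    refine h3 t ht _ (mem_inf.2 ⟨mul_mem (inv_mem hw) (cW _ _ hw), h1 w hw y hy.2⟩) ?_
    have e : ρ (t * y * t⁻¹) = ρ y := by rw [map_mul, map_mul, map_inv, ← hYt _ hy.1, mul_inv_cancel_right]
    have := h1 _ (cW t w hw) y hy.2
    rw [← act e _ (cW t w hw)] at this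
    convert this using 1; group
  have F2 : ⁅W, zpowers t⁆ ≤ C⟦Y⟧ := by
    rw [← commg_eq_bot, commutator_comm W]
    refine commutator_commutator_eq_bot_of_rotate ?_ ?_
    · rw [commg_eq_bot, cent_zpowers, commutator_le]
      intro w hw y hy
      have := F1 y hy _ (inv_mem hw)
      rw [inv_inv, mul_inv_eq_iff_eq_mul] at this
      rw [mem_cent1, commutatorElement_def]
      simpa [mul_assoc] using this.symm
    · rw [commg_eq_bot, commutator_le]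
      rintro y hy _ ⟨k, rfl⟩
      refine (QuotientGroup.eq_one_iff _).1 (show ρ _ = 1 from ?_)
      rw [map_commutatorElement, commutatorElement_eq_one_iff_commute, map_zpow]
      exact Commute.zpow_right (hYt _ hy.1) k
  have F3 : ∀ w ∈ ⁅W, zpowers t⁆, x * w * x⁻¹ ∈ ⁅W, zpowers t⁆ := fun w hw => by
    have : cj x ⁅W, zpowers t⁆ ≤ ⁅W, zpowers t⁆ := by
      rw [cj_commutator, cj_zpowers, cj_eq_of_mem_norm (by rw [normalizer_eq_top]; trivial), commutator_le]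
      rintro w hw _ ⟨k, rfl⟩
      have e : ρ ((x * t * x⁻¹) ^ k) = ρ (t⁻¹ ^ k) := by rw [map_zpow, map_zpow, hxt']
      have := commutator_mem_commutator hw (zpow_mem (inv_mem (mem_zpowers t)) k)
      simp only [commutatorElement_def, mul_assoc] at this ⊢
      have e2 := act e _ (inv_mem hw)
      simp only [mul_assoc] at e2
      rwa [e2]
    exact this (conj_mem_cj.2 hw)
  have hle : ⁅W, zpowers t⁆ ≤ W := commutator_le_left _ _
  obtain ⟨w, hw, hu⟩ : ∃ w ∈ ⁅W, zpowers t⁆, w⁻¹ * (x * w * x⁻¹) ≠ 1 := by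
    by_contra! h
    have e1 : x ∈ C⟦⁅W, zpowers t⁆⟧ := mem_cent.2 fun w hw => by
      have := h w hw
      rwa [inv_mul_eq_one, eq_mul_inv_iff_mul_eq] at this
    have e2 : t ∈ N⟦C⟦⁅W, zpowers t⁆⟧⟧ := norm_cent (norm_commutator hAW (le_norm_self _)) (mem_zpowers t)
    have e4 : t ^ 2 ∈ C⟦⁅W, zpowers t⁆⟧ := by
      have := inv_mem (mul_mem (mul_mem (conj_mem_of_norm' e2 e1) (inv_mem e1)) (cent_anti hle (kρ hxt')))
      convert this using 1; group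
    have e5 : t ∈ C⟦⁅W, zpowers t⁆⟧ := by
      obtain ⟨k, hk⟩ := hto
      have := inv_mem (pow_mem e4 k)
      rwa [← pow_mul, inv_eq_of_mul_eq_one_right (by rw [← pow_succ, ← hk, pow_orderOf_eq_one])] at this
    refine ht1' (cent_symm (commg_eq_bot.1 (H1.commutator_eq_bot_of_commutator_commutator_eq_bot hAW hcop ?_))
      (mem_zpowers t))
    exact commg_eq_bot.2 (cent_symm (zpowers_le.2 e5))
  set u := w⁻¹ * (x * w * x⁻¹) with hu'
  have huU : u ∈ W ⊓ C⟦(S : Subgroup X)⟧ := mem_inf.2 ⟨mul_mem (inv_mem (hle hw)) (cW _ _ (hle hw)), h1 w (hle hw) x hx⟩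
  have hut : u ∉ C₁⟦t⟧ := fun e => hu (by
    have : u ∈ (W ⊓ C⟦zpowers t⟧) ⊓ ⁅W, zpowers t⁆ :=
      mem_inf.2 ⟨⟨huU.1, by rwa [cent_zpowers]⟩, mul_mem (inv_mem hw) (F3 w hw)⟩
    rwa [H1.inf_centralizer_inf_commutator_eq_bot hAW hcop, mem_bot] at this)
  have hxY : x ∉ Y := fun e => hu (by rw [hu', mem_cent.1 (F2 hw) x e]; group)
  have key : ∀ n ∈ M, n ∉ N⟦Y⟧ → n * u * n⁻¹ ∈ C₁⟦t⟧ := fun n hn hnY => by
    obtain ⟨y, hy, hy'⟩ : ∃ y ∈ Y, n⁻¹ * y * n⁻¹⁻¹ ∉ Y := by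
      by_contra! h
      exact hnY (by simpa using inv_mem (mem_norm_of_forall h))
    have hyS : n⁻¹ * y * n⁻¹⁻¹ ∈ (S : Subgroup X) := conj_mem_of_norm (hM (inv_mem hn)) hy.2
    have e1 : x⁻¹ * (n⁻¹ * y * n⁻¹⁻¹) ∈ Y := by
      have := (mul_mem_iff_of_index_two hY2' (a := ⟨x, hx⟩⁻¹) (b := ⟨_, hyS⟩)).2 (by
        simp only [inv_mem_iff, mem_subgroupOf]; exact iff_of_false hxY hy')
      exact this
    have e2 := mem_cent.1 (F2 hw) _ e1
    have e3 : n * u * n⁻¹ = (n * w * n⁻¹)⁻¹ * (y * (n * w * n⁻¹) * y⁻¹) := by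
      calc n * u * n⁻¹ = n * w⁻¹ * x * (w * (x⁻¹ * (n⁻¹ * y * n⁻¹⁻¹))) * n⁻¹ * y⁻¹ := by rw [hu']; group
        _ = _ := by rw [← e2]; group
    have := F1 y hy _ (cW n w (hle hw))
    rw [← e3, mul_inv_eq_iff_eq_mul] at this
    exact mem_cent1.2 this.symm
  obtain ⟨m, hm, hmY⟩ : ∃ m ∈ M, m ∉ N⟦Y⟧ := by
    by_contra! h
    exact h4 Y inf_le_right h hY2'
  have cov : ∀ v ∈ W ⊓ C⟦(S : Subgroup X)⟧, v ∈ C₁⟦t⟧ ∨ v ∈ cj m C₁⟦t⟧ := fun v hv => by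
    by_cases e : v = 1
    · exact .inl (e ▸ one_mem _)
    obtain ⟨n, hn, rfl⟩ := h2 u huU v hv hu e
    by_cases e : n ∈ N⟦Y⟧
    · refine .inr (mem_cj.2 ?_)
      have := key (m⁻¹ * n) (mul_mem (inv_mem hm) hn) fun e1 => hmY (by simpa using inv_mem (mul_mem e1 (inv_mem e)))
      convert this using 1; group
    · exact .inl (key n hn e)
  have hu1 : m * u * m⁻¹ ∈ W ⊓ C⟦(S : Subgroup X)⟧ := ⟨cW _ _ huU.1, conj_mem_of_norm (norm_cent hM hm) huU.2⟩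
  have a1 := (cov u huU).resolve_left hut
  have a2 : m * u * m⁻¹ ∉ cj m C₁⟦t⟧ := fun e => hut (conj_mem_cj.1 e)
  have a3 := (cov _ hu1).resolve_right a2
  rcases cov _ (mul_mem huU hu1) with e | e
  · exact hut ((mul_mem_cancel_right a3).1 e)
  · exact a2 ((mul_mem_cancel_left a1).1 e)

end Cfsg.Agent.H10.OC
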