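import Cfsg.Agent.H10.OC2
import Cfsg.Agent.H25.Rank2
import Cfsg.Agent.H21.Base3
import Cfsg.Agent.H11.Invol

/-! Thompson: solvable groups with one class of involutions have 2-length one. -/

set_option autoImplicit false
set_option linter.style.haveILetI false

namespace Cfsg.Agent.H10.OC

open Subgroup Cfsg.Agent.H20 Cfsg.Agent.H21
open scoped commutatorElement

variable {G : Type*} [Group G] [Finite G]

theorem exists_invol {H : Subgroup G} (h : 2 ∣ ♯H) : ∃ y ∈ H, y ≠ 1 ∧ y ^ 2 = 1 := by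
  obtain ⟨y, hy, e⟩ := H11.exists_invol_of_even (even_iff_two_dvd.2 h)
  exact ⟨y, hy, fun e1 => by simp [e1] at e, e ▸ pow_orderOf_eq_one y⟩

theorem Tr.le {V H : Subgroup G} (hT : Tr (⊤ : Subgroup G)) (hV : ∀ x, x ∈ V ↔ x ^ 2 = 1) [H.Normal]
    (h : 2 ∣ ♯H) : V ≤ H := fun v hv => by
  obtain ⟨y, hy, h1, h2⟩ := exists_invol h
  by_cases e : v = 1
  · exact e ▸ one_mem _
  obtain ⟨n, -, rfl⟩ := hT y v h1 h2 e ((hV v).1 hv)
  exact Normal.conj_mem inferInstance _ hy _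

theorem exists_V (hG : Group.IsSolvable G) (hO : pPrimeCore 2 G = ⊥) (hT : Tr (⊤ : Subgroup G)) [Nontrivial G] :
    ∃ V : Subgroup G, ∀ x, x ∈ V ↔ x ^ 2 = 1 := by
  haveI : Fact (Nat.Prime 2) := ⟨Nat.prime_two⟩
  have hQ := H1.isPGroup_pCore 2 G
  have h1 := inf_cent_ne_bot_of_pgroup hQ hQ (le_norm_self _)
    ((H9.core_ne_bot_of_isPSolvable (H9.isPSolvable_of_isSolvable hG)).resolve_right (not_not.2 hO))
  obtain ⟨y, hy, h2, h3⟩ := exists_invol (dvd_card_of_isPGroup (hQ.to_le inf_le_left) h1)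
  have h : ∀ v : G, v ^ 2 = 1 → v ∈ pCore 2 G ⊓ C⟦pCore 2 G⟧ := fun v hv => by
    by_cases e : v = 1
    · exact e ▸ one_mem _
    obtain ⟨n, -, rfl⟩ := hT y v h2 h3 e hv
    exact Normal.conj_mem inferInstance _ hy _
  exact ⟨{ carrier := {x | x ^ 2 = 1}
           one_mem' := one_pow 2
           inv_mem' := fun {x} (hx : x ^ 2 = 1) => show _ = 1 by rw [inv_pow, hx, inv_one]
           mul_mem' := fun {a b} (ha : a ^ 2 = 1) (hb : b ^ 2 = 1) => show _ = 1 by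
             rw [Commute.mul_pow (mem_cent.1 (h b hb).2 a (h a ha).1), ha, hb, one_mul] }, fun _ => Iff.rfl⟩

theorem normal_V {V : Subgroup G} (hV : ∀ x, x ∈ V ↔ x ^ 2 = 1) : V.Normal :=
  ⟨fun x hx g => (hV _).2 (by rw [conj_pow, (hV x).1 hx]; group)⟩

theorem pgroup_V {V : Subgroup G} (hV : ∀ x, x ∈ V ↔ x ^ 2 = 1) : IsPGroup 2 V :=
  fun x => ⟨1, Subtype.ext (by simpa using (hV _).1 x.2)⟩

theorem le_cent_V (hG : Group.IsSolvable G) (hT : Tr (⊤ : Subgroup G)) {V : Subgroup G}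
    (hV : ∀ x, x ∈ V ↔ x ^ 2 = 1) (S : Sylow 2 G) : (S : Subgroup G) ≤ C⟦V⟧ := by
  haveI : Fact (Nat.Prime 2) := ⟨Nat.prime_two⟩
  haveI := normal_V hV
  by_contra hS
  let ρ := QuotientGroup.mk' C⟦V⟧
  have hρ : Function.Surjective ρ := QuotientGroup.mk'_surjective _
  haveI : Nontrivial (G ⧸ C⟦V⟧) := QuotientGroup.nontrivial_iff.2 fun e => hS (e ▸ le_top)
  obtain ⟨r, hr, h1⟩ := H1.exists_pCore_ne_bot (G := G ⧸ C⟦V⟧) inferInstance
  haveI : Fact r.Prime := ⟨hr⟩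
  let M := (pCore r (G ⧸ C⟦V⟧)).comap ρ
  obtain ⟨P⟩ : Nonempty (Sylow r M) := inferInstance
  obtain ⟨T, hTP⟩ := P.exists_comap_subtype_eq
  let R := (P : Subgroup M).map M.subtype
  have hR : IsPGroup r R := P.isPGroup'.map _
  have hRT : R ≤ T := by rintro _ ⟨x, hx, rfl⟩; rw [← hTP] at hx; exact hx
  have hM : ∀ m ∈ M, ∃ t ∈ R, ρ t = ρ m := fun m hm => by
    obtain ⟨t, ht, e⟩ := H1.pCore_le_sylow (T.mapSurjective hρ) hm
    have : t ∈ M := by show ρ t ∈ pCore r _; rw [e]; exact hm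
    exact ⟨t, ⟨⟨t, this⟩, by rw [← hTP]; exact ht, rfl⟩, e⟩
  have key : ∀ y ∈ V, y ∈ C⟦R⟧ → y = 1 := fun y hy hc => by
    by_contra e
    have h2 : y ∈ V ⊓ C⟦M⟧ := ⟨hy, mem_cent.2 fun m hm => by
      obtain ⟨t, ht, e⟩ := hM m hm
      have := mem_cent.1 (QuotientGroup.eq.1 e) y hy
      calc m * y = t * (t⁻¹ * m * y) := by group
        _ = _ := by rw [← this, ← mul_assoc, mem_cent.1 hc t ht]; group⟩
    have h3 := hT.le hV (H := V ⊓ C⟦M⟧) (dvd_card_of_isPGroup ((pgroup_V hV).to_le inf_le_left)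
      fun e1 => e (by rwa [e1, mem_bot] at h2))
    refine h1 (eq_bot_iff.2 fun p hp => ?_)
    obtain ⟨p, rfl⟩ := hρ p
    exact (QuotientGroup.eq_one_iff p).2 (cent_symm (h3.trans inf_le_right) hp)
  by_cases e : r = 2
  · subst e
    refine inf_cent_ne_bot_of_pgroup (pgroup_V hV) hR (by rw [normalizer_eq_top]; exact le_top) (fun e => hS ?_)
      (eq_bot_iff.2 fun y hy => key y hy.1 hy.2)
    rw [e, cent_bot]; exact le_top
  have h2 : ¬ 2 ∣ ♯N⟦R⟧ := fun h => by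
    obtain ⟨y, hy, h3, h4⟩ := exists_invol h
    refine h3 (key y ((hV y).2 h4) (mem_cent.2 fun x hx => ?_))
    have : x * y * x⁻¹ * y⁻¹ ∈ R ⊓ V := mem_inf.2 ⟨by
      simpa [mul_assoc] using mul_mem hx (conj_mem_of_norm hy (inv_mem hx)),
      mul_mem (Normal.conj_mem inferInstance _ ((hV y).2 h4) _) (inv_mem ((hV y).2 h4))⟩
    rw [inf_eq_bot_of_coprime (coprime_of_isPGroup_ne hR (pgroup_V hV) e), mem_bot] at this
    rwa [mul_inv_eq_one, mul_inv_eq_iff_eq_mul] at this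
  have h3 : N⟦R⟧.map ρ = ⊤ := by
    rw [eq_top_iff, ← map_top_of_surjective ρ hρ, ← P.normalizer_sup_eq_top, Subgroup.map_sup]
    refine sup_le le_rfl ?_
    rintro _ ⟨m, hm, rfl⟩
    obtain ⟨t, ht, e⟩ := hM m hm
    exact ⟨t, le_norm_self _ ht, e⟩
  refine h2 (((dvd_card_of_isPGroup (S.isPGroup'.map ρ) fun e => hS ?_).trans (card_dvd_of_le ?_)).trans
    (card_map_dvd _ ρ))
  · rwa [Subgroup.map_eq_bot_iff, QuotientGroup.ker_mk'] at e
  · rw [h3]; exact le_top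

theorem pow_four {D L : Subgroup G} [D.Normal] [L.Normal] (hD : IsPGroup 2 D) (h1 : D ≠ ⊥) (e : ⁅D, L⁆ = D)
    (h : ∀ B : Subgroup G, B.Normal → B < D → B ≤ C⟦L⟧) : ∀ d ∈ D, (d ^ 2) ^ 2 = 1 := by
  haveI : Fact (Nat.Prime 2) := ⟨Nat.prime_two⟩
  haveI : Nontrivial D := (nontrivial_iff_ne_bot D).2 h1
  have hF : (frattini D).map D.subtype ≤ C⟦L⟧ := h _ inferInstance (lt_of_le_of_ne (map_subtype_le _) fun e1 => by
    have : frattini D = ⊤ := map_subtype_inj.1 (by rw [e1, ← MonoidHom.range_eq_map, range_subtype])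
    exact bot_ne_top (frattini_nongenerating (K := ⊥) (by rw [this, bot_sup_eq])))
  have hZ : D ⊓ C⟦L⟧ ≤ C⟦D⟧ := by
    refine cent_symm (commg_eq_bot.1 ?_)
    nth_rw 1 [← e]
    refine commutator_commutator_eq_bot_of_rotate ?_ ?_
    · rw [commg_eq_bot.2 (cent_symm inf_le_right), commutator_bot_left]
    · exact commg_eq_bot.2 ((commutator_le_left _ _).trans inf_le_right)
  have s1 : ∀ d ∈ D, d ^ 2 ∈ D ⊓ C⟦L⟧ := fun d hd => ⟨pow_mem hd _, hF ⟨_, H3.pow_mem_frattini hD ⟨d, hd⟩, rfl⟩⟩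
  have s2 : ∀ a ∈ D, ∀ b ∈ D, (a * b)⁻¹ * (b * a) ∈ C⟦D⟧ := fun a ha b hb => hZ (mem_inf.2
    ⟨mul_mem (inv_mem (mul_mem ha hb)) (mul_mem hb ha), hF ⟨_, H3.commutator_le_frattini hD (commutator_mem_commutator
      (mem_top (⟨b, hb⟩⁻¹ : D)) (mem_top (⟨a, ha⟩⁻¹ : D))), by simp [commutatorElement_def, mul_assoc]⟩⟩)
  have s3 : ∀ a ∈ D, ∀ b ∈ D, ((a * b) ^ 2) ^ 2 = (a ^ 2) ^ 2 * (b ^ 2) ^ 2 := fun a ha b hb => by
    obtain ⟨c, hc⟩ : ∃ c, c = (a * b)⁻¹ * (b * a) := ⟨_, rfl⟩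
    have c1 : ∀ x ∈ D, Commute x c := fun x hx => mem_cent.1 (hc ▸ s2 a ha b hb) x hx
    have c2 : b * a = a * b * c := by rw [hc]; group
    have c3 : Commute b (a ^ 2) := mem_cent.1 (hZ (s1 a ha)) b hb
    have c4 : c * c = 1 := by
      have : a ^ 2 * b * (c * c) = a ^ 2 * b := calc
        _ = a * (a * b * c) * c := by rw [pow_two]; group
        _ = a * b * (a * c) := by rw [← c2]; group
        _ = a * b * c * a := by rw [(c1 a ha).eq]; group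
        _ = _ := by rw [← c2, ← c3.eq, pow_two, mul_assoc]
      simpa using this
    have c5 : (a * b) ^ 2 = a ^ 2 * b ^ 2 * c := calc
      _ = a * (b * a) * b := by rw [pow_two]; group
      _ = a * (a * b) * (c * b) := by rw [c2]; group
      _ = _ := by rw [← (c1 b hb).eq, pow_two, pow_two]; group
    rw [c5, (c1 _ (mul_mem (pow_mem ha 2) (pow_mem hb 2))).mul_pow, pow_two c, c4, mul_one,
      (c3.pow_left 2).symm.mul_pow]
  let T : Subgroup G :=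
    { carrier := {d | d ∈ D ∧ (d ^ 2) ^ 2 = 1}
      one_mem' := ⟨one_mem _, by simp⟩
      inv_mem' := fun {x} hx => ⟨inv_mem hx.1, by rw [inv_pow, inv_pow, hx.2, inv_one]⟩
      mul_mem' := fun {a b} ha hb => ⟨mul_mem ha.1 hb.1, by rw [s3 a ha.1 b hb.1, ha.2, hb.2, one_mul]⟩ }
  have : ⁅D, L⁆ ≤ T := commutator_le.2 fun d hd l hl => by
    have m1 : l * d⁻¹ * l⁻¹ ∈ D := Normal.conj_mem inferInstance _ (inv_mem hd) _
    have e1 : ⁅d, l⁆ = d * (l * d⁻¹ * l⁻¹) := by rw [commutatorElement_def]; group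
    refine ⟨e1 ▸ mul_mem hd m1, ?_⟩
    rw [e1, s3 _ hd _ m1, conj_pow, conj_pow, mem_cent.1 (pow_mem (s1 _ (inv_mem hd)).2 2) l hl]
    group
  exact fun d hd => (this (e.ge hd)).2

theorem core (hG : Group.IsSolvable G) (hO : pPrimeCore 2 G = ⊥) (hT : Tr (⊤ : Subgroup G)) {x y : G}
    (hxy : x ≠ y) (hx1 : x ≠ 1) (hx : x ^ 2 = 1) (hy1 : y ≠ 1) (hy : y ^ 2 = 1) (S : Sylow 2 G) :
    (S : Subgroup G).Normal ∧ ∀ v : G, v ^ 2 = 1 → v ∈ C⟦(S : Subgroup G)⟧ := by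
  haveI : Fact (Nat.Prime 2) := ⟨Nat.prime_two⟩
  haveI : Nontrivial G := ⟨⟨x, y, hxy⟩⟩
  obtain ⟨V, hV⟩ := exists_V hG hO hT
  haveI := normal_V hV
  have hSV := le_cent_V hG hT hV S
  refine ⟨?_, fun v hv => cent_symm hSV ((hV v).2 hv)⟩
  by_contra hS
  obtain ⟨l, hl⟩ := IsPGroup.iff_card.1 (pgroup_V hV)
  have hq : 2 < ♯V := by
    haveI := Fintype.ofFinite V
    rw [Nat.card_eq_fintype_card, Fintype.two_lt_card_iff]
    exact ⟨1, ⟨x, (hV x).2 hx⟩, ⟨y, (hV y).2 hy⟩, fun e => hx1 (congrArg Subtype.val e).symm,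
      fun e => hy1 (congrArg Subtype.val e).symm, fun e => hxy (congrArg Subtype.val e)⟩
  have hq2 : Even (♯V) := by
    rw [hl] at hq ⊢
    exact (Nat.even_pow.2 ⟨even_two, by rintro rfl; simp at hq⟩)
  have hN : Tr N⟦(S : Subgroup G)⟧ := fun a b a1 a2 b1 b2 => by
    obtain ⟨g, -, rfl⟩ := hT a b a1 a2 b1 b2
    obtain ⟨n, hn, e⟩ := S.conj_eq_normalizer_conj_of_mem_centralizer a g⁻¹ (cent_symm hSV ((hV _).2 a2))
      (by simpa using cent_symm hSV ((hV _).2 b2))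
    exact ⟨n⁻¹, inv_mem hn, by simpa using e.symm⟩
  let K := normalClosure ((S : Subgroup G) : Set G)
  have hKV : K ≤ C⟦V⟧ := normalClosure_le_normal hSV
  let L := closure {g | g ∈ K ∧ Odd (orderOf g)}
  have hLK : L ≤ K := (closure_le _).2 fun g hg => hg.1
  haveI : L.Normal := normalizer_eq_top_iff.1 (eq_top_iff.2 (norm_closure fun g _ a ha =>
    ⟨Normal.conj_mem inferInstance _ ha.1 _, by
      rw [show orderOf (g * a * g⁻¹) = orderOf a from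
        orderOf_injective (MulAut.conj g).toMonoidHom (MulAut.conj g).injective a]; exact ha.2⟩))
  have hQ := H1.isPGroup_pCore 2 G
  have hLQ : ¬ pCore 2 G ≤ C⟦L⟧ := fun h => hS (by
    have h1 := (cent_symm h).trans (H1.centralizer_pCore_le_of_isSolvable hG hO)
    have h2 : IsPGroup 2 K := fun g => by
      obtain ⟨a, b, hb, e⟩ := Nat.exists_eq_two_pow_mul_odd (orderOf_pos (g : G)).ne'
      have ho : Odd (orderOf ((g : G) ^ 2 ^ a)) := by
        rw [orderOf_pow_of_dvd (by positivity) ⟨b, e⟩, e, Nat.mul_div_cancel_left _ (by positivity)]; exact hb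
      obtain ⟨k, hk⟩ := hQ ⟨_, h1 (subset_closure ⟨pow_mem g.2 _, ho⟩)⟩
      exact ⟨a, Subtype.ext (orderOf_eq_one_iff.1 (((Nat.coprime_two_right.2 ho).pow_right k).eq_one_of_dvd
        (orderOf_dvd_of_pow_eq_one (congrArg Subtype.val hk))))⟩
    rw [← S.is_maximal' h2 subset_normalClosure]; infer_instance)
  obtain ⟨D, ⟨hD1, hD2, hD3⟩, hmin⟩ := (wellFounded_lt (α := Subgroup G)).has_min
    {D | D.Normal ∧ D ≤ pCore 2 G ∧ ¬ D ≤ C⟦L⟧} ⟨_, inferInstance, le_rfl, hLQ⟩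
  have hmin' : ∀ B : Subgroup G, B.Normal → B < D → B ≤ C⟦L⟧ := fun B h1 h2 => by
    by_contra h3
    exact hmin B ⟨h1, h2.le.trans hD2, h3⟩ h2
  have hDp := hQ.to_le hD2
  have hDS : D ≤ S := hD2.trans (H1.pCore_le_sylow S)
  have hD0 : D ≠ ⊥ := fun e => hD3 (e ▸ bot_le)
  have hDL : ⁅D, L⁆ = D := by
    by_contra e
    have h1 := hmin' _ inferInstance (lt_of_le_of_ne (commutator_le_left _ _) e)
    refine hD3 (cent_symm ((closure_le _).2 fun g hg => ?_))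
    have hg' : zpowers g ≤ L := zpowers_le.2 (subset_closure hg)
    have := H1.commutator_eq_bot_of_commutator_commutator_eq_bot (A := zpowers g) (K := D)
      (by rw [normalizer_eq_top]; exact le_top)
      (H21.coprime_of_isPGroup hDp (by rw [Nat.card_zpowers]; exact Nat.coprime_two_right.2 hg.2)).symm
      (commg_eq_bot.2 ((commutator_mono le_rfl hg').trans (h1.trans (cent_anti hg'))))
    exact cent_symm (commg_eq_bot.1 this) (mem_zpowers g)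
  have hVD : V ≤ D := hT.le hV (dvd_card_of_isPGroup hDp hD0)
  have h4 : ∀ d ∈ D, d ^ 2 ∈ V := fun d hd => (hV _).2 (pow_four hDp hD0 hDL hmin' d hd)
  have hVc : ∀ v ∈ V, ∀ d ∈ D, d * v = v * d := fun v hv d hd => (mem_cent.1 (hSV (hDS hd)) v hv).symm
  have hcw := H25.index_le_of_sq (G := D) (N := V.subgroupOf D) (E := V.subgroupOf D)
    (fun v hv => mem_center_iff.2 fun d => Subtype.ext (hVc v hv d d.2)) (fun d => h4 d d.2)
    (fun v hv => Subtype.ext ((hV _).1 hv)) (fun d => (hV _).trans ⟨fun h => Subtype.ext h, fun h => congrArg Subtype.val h⟩)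
    (l := l) (by rw [Nat.card_congr (subgroupOfEquivOfLe hVD).toEquiv, hl])
  let π := QuotientGroup.mk' V
  have hπ : Function.Surjective π := QuotientGroup.mk'_surjective _
  have kπ : ∀ {g}, π g = 1 ↔ g ∈ V := QuotientGroup.eq_one_iff _
  let S' : Sylow 2 (G ⧸ V) := S.mapSurjective hπ
  have eS : (S' : Subgroup (G ⧸ V)) = (S : Subgroup G).map π := rfl
  set W := D.map π with hW
  haveI : W.Normal := hD1.map _ hπ
  set M := N⟦(S : Subgroup G)⟧.map π with hM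
  have hMS : M ≤ N⟦(S' : Subgroup (G ⧸ V))⟧ := norm_map π le_rfl
  have hMW : M ≤ N⟦W⟧ := by rw [normalizer_eq_top]; exact le_top
  have hWS : W ≤ S' := map_mono hDS
  have cW : ♯W < 2 * ♯V * ♯V := by
    rw [hW, ← H9.relIndex_eq_card_map_mk', hl]
    exact hcw.trans_eq (by ring)
  have rel : ∀ {B U : Subgroup (G ⧸ V)}, B < U → U ≤ S' → M ≤ N⟦B⟧ → M ≤ N⟦U⟧ → ♯V ≤ B.relIndex U :=
    fun {B U} h1 h2 h3 h4 => by
      have := le_rel hV hN hq2 (B := B.comap π) (U := U.comap π)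
        (((S'.isPGroup'.to_le h2).comap_of_ker_isPGroup π (by rw [QuotientGroup.ker_mk']; exact pgroup_V hV)))
        ((comap_lt_comap_of_surjective hπ).2 h1) ((le_comap_map _ _).trans (norm_comap π h3))
        ((le_comap_map _ _).trans (norm_comap π h4))
      rwa [relIndex_comap, map_comap_eq_self_of_surjective hπ] at this
  have rel' : ∀ {B U : Subgroup (G ⧸ V)}, B < U → U ≤ S' → M ≤ N⟦B⟧ → M ≤ N⟦U⟧ → ♯V * ♯B ≤ ♯U :=
    fun {B U} h1 h2 h3 h4 => by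
      have e : B.relIndex U * ♯B = ♯U := by
        rw [relIndex, ← Nat.card_congr (subgroupOfEquivOfLe h1.le).toEquiv, index_mul_card]
      rw [← e]; exact Nat.mul_le_mul_right _ (rel h1 h2 h3 h4)
  have hMb : M ≤ N⟦(⊥ : Subgroup (G ⧸ V))⟧ := by rw [norm_bot]; exact le_top
  have hH : ∀ W' : Subgroup (G ⧸ V), W'.Normal → ⁅W, (S' : Subgroup (G ⧸ V))⁆ ≤ W' → W ≤ W' := fun W' h1 h2 => by
    have : K.map π ≤ C⟦W.map (QuotientGroup.mk' W')⟧.comap (QuotientGroup.mk' W') := by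
      rw [map_normalClosure _ _ hπ]
      refine normalClosure_le_normal fun s hs => mem_cent.2 ?_
      rintro _ ⟨w, hw, rfl⟩
      rw [← commutatorElement_eq_one_iff_mul_comm, ← map_commutatorElement]
      exact (QuotientGroup.eq_one_iff _).2 (h2 (commutator_mem_commutator hw hs))
    rw [hW, ← hDL, map_commutator, commutator_le]
    intro w hw k hk
    have := mem_cent.1 (this (map_mono hLK hk)) _ ⟨w, hw, rfl⟩
    rw [← commutatorElement_eq_one_iff_mul_comm, ← map_commutatorElement] at this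
    exact (QuotientGroup.eq_one_iff _).1 this
  have hW0 : W ≠ ⊥ := fun e => hD3 (by
    rw [hW, Subgroup.map_eq_bot_iff, QuotientGroup.ker_mk'] at e
    exact e.trans (cent_symm (hLK.trans hKV)))
  have hSW : ¬ (S' : Subgroup (G ⧸ V)) ≤ C⟦W⟧ := fun h =>
    hW0 (eq_bot_iff.2 (hH ⊥ inferInstance (commg_eq_bot.2 (cent_symm h)).le))
  have hSn : (S' : Subgroup (G ⧸ V)) ≤ N⟦W⟧ := by rw [normalizer_eq_top]; exact le_top
  set U := W ⊓ C⟦(S' : Subgroup (G ⧸ V))⟧ with hU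
  have hMU : M ≤ N⟦U⟧ := norm_inf_cent hMW hMS
  have hA : ⁅W, (S' : Subgroup (G ⧸ V))⁆ ≤ U := by
    have a1 := commg_lt_of_nil S'.isPGroup'.isNilpotent hWS hSn hW0
    have a2 : M ≤ N⟦⁅W, (S' : Subgroup (G ⧸ V))⁆⟧ := norm_commutator hMW hMS
    have a3 := inf_cent_ne_bot_of_pgroup (S'.isPGroup'.to_le (a1.le.trans hWS)) S'.isPGroup'
      (norm_commutator hSn (le_norm_self _)) fun e => hSW (cent_symm (commg_eq_bot.1 e))
    refine le_inf a1.le ?_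
    by_contra a4
    have b1 := rel' (bot_lt_iff_ne_bot.2 a3) (inf_le_left.trans (a1.le.trans hWS)) hMb (norm_inf_cent a2 hMS)
    have b2 := rel' (lt_of_le_of_ne inf_le_left fun e => a4 (e.ge.trans inf_le_right)) (a1.le.trans hWS)
      (norm_inf_cent a2 hMS) a2
    have b3 := rel' a1 hWS a2 hMW
    rw [card_bot, mul_one] at b1
    nlinarith [Nat.mul_le_mul_left (♯V) b1, Nat.mul_le_mul_left (♯V) ((Nat.mul_le_mul_left (♯V) b1).trans b2)]
  have hU0 : U ≠ ⊥ := inf_cent_ne_bot_of_pgroup (S'.isPGroup'.to_le hWS) S'.isPGroup' hSn hW0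
  have cU : ♯U ≤ ♯V := by
    have b := rel' (lt_of_le_of_ne inf_le_left fun e => hSW (cent_symm (e.ge.trans inf_le_right))) hWS hMU hMW
    obtain ⟨a, ha⟩ := IsPGroup.iff_card.1 (S'.isPGroup'.to_le (inf_le_left.trans hWS : U ≤ S'))
    have : ♯U < 2 * ♯V := by nlinarith
    rw [ha, hl, ← pow_succ'] at this
    rw [ha, hl]
    exact Nat.pow_le_pow_right two_pos (by have := (Nat.pow_lt_pow_iff_right one_lt_two).1 this; omega)
  have sq : ∀ d ∈ D, ∀ e, π d = π e → d ^ 2 = e ^ 2 := fun d hd e h => by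
    have h1 : d⁻¹ * e ∈ V := QuotientGroup.eq.1 h
    rw [show e = d * (d⁻¹ * e) by group, Commute.mul_pow (hVc _ h1 d hd), (hV _).1 h1, mul_one]
  have cov : ∀ d ∈ D, π d ∈ U → π d ≠ 1 → ∀ v ∈ V, v ≠ 1 → ∃ n ∈ N⟦(S : Subgroup G)⟧, (n * d * n⁻¹) ^ 2 = v :=
    fun d hd _ h1 v hv h2 => by
      obtain ⟨n, hn, e⟩ := hN _ v (fun e => h1 (kπ.2 ((hV d).2 e))) ((hV _).1 (h4 d hd)) h2 ((hV v).1 hv)
      exact ⟨n, hn, by rw [conj_pow, e]⟩
  have cU' : ∀ n ∈ N⟦(S : Subgroup G)⟧, ∀ d, π d ∈ U → π (n * d * n⁻¹) ∈ U := fun n hn d hd => by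
    simpa using conj_mem_of_norm (hMU ⟨n, hn, rfl⟩) hd
  have inj : ∀ d ∈ D, ∀ e ∈ D, π d ∈ U → π e ∈ U → d ^ 2 = e ^ 2 → π d = π e := by
    choose r hr1 hr2 using fun u : U => mem_map.1 u.2.1
    let f : U → V := fun u => ⟨r u ^ 2, h4 _ (hr1 u)⟩
    have hf : ∀ d ∈ D, ∀ h : π d ∈ U, (f ⟨_, h⟩ : G) = d ^ 2 := fun d hd h => sq _ (hr1 _) _ (hr2 _)
    have : Function.Surjective f := fun ⟨v, hv⟩ => by
      by_cases e : v = 1
      · exact ⟨⟨π 1, by simp⟩, Subtype.ext (by rw [hf 1 (one_mem _), one_pow]; exact e.symm)⟩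
      obtain ⟨⟨_, ⟨d, hd, rfl⟩, h0⟩, h1⟩ := ne_bot_iff_exists_ne_one.1 hU0
      obtain ⟨n, hn, e⟩ := cov d hd ⟨⟨d, hd, rfl⟩, h0⟩ (fun e => h1 (Subtype.ext e)) v hv e
      exact ⟨⟨_, cU' n hn d ⟨⟨d, hd, rfl⟩, h0⟩⟩, Subtype.ext ((hf _ (hD1.conj_mem _ hd _) _).trans e)⟩
    intro d hd e he h1 h2 h3
    exact congrArg Subtype.val ((this.bijective_of_nat_card_le cU).1 (a₁ := ⟨_, h1⟩) (a₂ := ⟨_, h2⟩)
      (Subtype.ext (by rw [hf d hd, hf e he, h3])))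
  refine hSW (lin inferInstance S' ?_ hMS (fun w hw s hs => ?_) ?_ ?_ (fun Y h1 h2 h3 => ?_) fun W' h1 h2 h3 =>
    le_antisymm h2 (hH W' h3 (hA.trans h1)))
  · rintro _ ⟨d, hd, rfl⟩
    rw [← map_mul, ← pow_two]; exact kπ.2 (h4 d hd)
  · have := (hA (commutator_mem_commutator (inv_mem hw) hs)).2
    simpa [commutatorElement_def, mul_assoc] using this
  · rintro _ ⟨⟨d, hd, rfl⟩, h1⟩ _ ⟨⟨e, he, rfl⟩, h2⟩ h3 h5
    obtain ⟨n, hn, e1⟩ := cov d hd ⟨⟨d, hd, rfl⟩, h1⟩ h3 _ (h4 e he) fun e1 => h5 (kπ.2 ((hV e).2 e1))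
    refine ⟨π n, ⟨n, hn, rfl⟩, ?_⟩
    simpa using inj _ (hD1.conj_mem _ hd n) e he (cU' n hn d ⟨⟨d, hd, rfl⟩, h1⟩) ⟨⟨e, he, rfl⟩, h2⟩ e1
  · rintro g hg _ ⟨⟨d, hd, rfl⟩, h1⟩ h2
    rw [eS, coe_map, ← map_normalClosure _ _ hπ] at hg
    obtain ⟨k, hk, rfl⟩ := hg
    have e : π k * π d * (π k)⁻¹ = π (k * d * k⁻¹) := by simp
    rw [e] at h2 ⊢
    refine inj _ (hD1.conj_mem _ hd k) d hd ⟨⟨_, hD1.conj_mem _ hd k, rfl⟩, h2⟩ ⟨⟨d, hd, rfl⟩, h1⟩ ?_
    rw [conj_pow, ← mem_cent.1 (hKV hk) _ (h4 d hd), mul_inv_cancel_right]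
  · have := rel (lt_of_le_of_ne h1 fun e => by simp [e] at h3) le_rfl h2 hMS
    omega

theorem homocyclic {P : Type*} [CommGroup P] [Finite P] (hP : IsPGroup 2 P)
    (h : ∀ x y : P, x ≠ 1 → x ^ 2 = 1 → y ≠ 1 → y ^ 2 = 1 → ∃ a : MulAut P, a x = y) :
    ∃ m r : ℕ, Nonempty (P ≃* (Fin r → Multiplicative (ZMod (2 ^ m)))) := by
  classical
  haveI : Fact (Nat.Prime 2) := ⟨Nat.prime_two⟩
  obtain ⟨ι, _, n, h1, ⟨e⟩⟩ := CommGroup.equiv_prod_multiplicative_zmod_of_finite P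
  have hc : ∀ i, ∃ a, n i = 2 ^ (a + 1) := fun i => by
    haveI : NeZero (n i) := ⟨by have := h1 i; omega⟩
    obtain ⟨a, ha⟩ : ∃ a, n i = 2 ^ a := by
      simpa using IsPGroup.iff_card.1 ((hP.of_equiv e).of_surjective (Pi.evalMonoidHom _ i) (Function.surjective_eval i))
    obtain _ | a := a
    · have := h1 i; omega
    · exact ⟨a, ha⟩
  choose a ha using hc
  obtain rfl : n = fun i => 2 ^ (a i + 1) := funext ha
  let u : ∀ i k, (j : ι) → Multiplicative (ZMod (2 ^ (a j + 1))) := fun i k =>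
    Pi.mulSingle i (Multiplicative.ofAdd ((2 ^ k : ℕ) : ZMod (2 ^ (a i + 1))))
  have u1 : ∀ i k j, u i k ^ 2 ^ j = u i (k + j) := fun i k j => by
    simp only [u, ← Pi.mulSingle_pow, ← ofAdd_nsmul, nsmul_eq_mul]
    congr 2; push_cast; ring
  have u2 : ∀ i, u i (a i) i ≠ 1 := fun i e => by
    simp only [u, Pi.mulSingle_eq_same, ofAdd_eq_one, ZMod.natCast_eq_zero_iff] at e
    have := (Nat.pow_dvd_pow_iff_le_right one_lt_two).1 e
    omega
  have u3 : ∀ i, u i (a i) ^ 2 = 1 := fun i => by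
    have := u1 i (a i) 1
    rw [pow_one] at this
    simp only [this, u, ZMod.natCast_self, ofAdd_zero, Pi.mulSingle_one]
  have key : ∀ i j, ¬ a i < a j := fun i j hij => by
    obtain ⟨φ, hφ⟩ := h (e.symm (u j (a j))) (e.symm (u i (a i)))
      (fun e1 => u2 j (by rw [(map_eq_one_iff _ e.symm.injective).1 e1]; rfl)) (by rw [← map_pow, u3, map_one])
      (fun e1 => u2 i (by rw [(map_eq_one_iff _ e.symm.injective).1 e1]; rfl)) (by rw [← map_pow, u3, map_one])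
    obtain ⟨k, hk⟩ := Nat.exists_eq_add_of_lt hij
    rw [show a j = k + (a i + 1) by omega, ← u1, map_pow, map_pow, eq_comm, MulEquiv.symm_apply_eq, map_pow] at hφ
    refine u2 i ?_
    rw [hφ, Pi.pow_apply]
    have := pow_card_eq_one' (G := Multiplicative (ZMod (2 ^ (a i + 1)))) (x := e (φ (e.symm (u j k))) i)
    rwa [Nat.card_congr Multiplicative.toAdd, Nat.card_zmod] at this
  obtain ⟨m, hm⟩ : ∃ m, a = fun _ => m := by
    rcases isEmpty_or_nonempty ι with _ | ⟨⟨i⟩⟩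
    · exact ⟨0, funext fun i => isEmptyElim i⟩
    · exact ⟨a i, funext fun j => le_antisymm (not_lt.1 (key i j)) (not_lt.1 (key j i))⟩
  subst hm
  exact ⟨m + 1, _, ⟨e.trans (MulEquiv.arrowCongr (Fintype.equivFin ι) (MulEquiv.refl _))⟩⟩

end Cfsg.Agent.H10.OC
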