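import Cfsg.Agent.H10.Basic
import Cfsg.Agent.H1.Coprime
import Cfsg.Agent.H2.Product
import Cfsg.Agent.H2.Subnormal
import Cfsg.Agent.H3.SylowIn

/-! TI-subgroups of `p`-groups. -/

set_option autoImplicit false

namespace Cfsg.Agent.H10

open Subgroup
open scoped commutatorElement

variable {G : Type*} [Group G]

/-- `B` meets its conjugate by `g` trivially or equals it. -/
def TIAt (B : Subgroup G) (g : G) : Prop :=
  B.map (MulAut.conj g).toMonoidHom = B ∨ B.map (MulAut.conj g).toMonoidHom ⊓ B = ⊥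

theorem TIAt.mem_normalizer {B : Subgroup G} {g b : G} (h : TIAt B g) (hb : b ∈ B) (hb1 : b ≠ 1)
    (hg : g * b * g⁻¹ ∈ B) : g ∈ normalizer (B : Set G) := by
  rcases h with h | h
  · exact mem_normalizer_iff_conj_eq.mpr h
  · have : g * b * g⁻¹ ∈ B.map (MulAut.conj g).toMonoidHom ⊓ B := ⟨conj_mem_conj g hb, hg⟩
    rw [h, mem_bot, conj_eq_one_iff] at this
    exact absurd this hb1

theorem TIAt.mem_normalizer_of_comm {B : Subgroup G} {g b : G} (h : TIAt B g) (hb : b ∈ B)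
    (hb1 : b ≠ 1) (hg : g * b = b * g) : g ∈ normalizer (B : Set G) :=
  h.mem_normalizer hb hb1 (by rwa [hg, mul_inv_cancel_right])

theorem TIAt.inf_eq_bot {B : Subgroup G} {g : G} (h : TIAt B g) (hg : g ∉ normalizer (B : Set G)) :
    B.map (MulAut.conj g).toMonoidHom ⊓ B = ⊥ :=
  h.resolve_left fun e => hg (mem_normalizer_iff_conj_eq.mpr e)

theorem ti_commutator_eq_bot [Finite G] {p : ℕ} [Fact p.Prime] {A B : Subgroup G}
    (hA : IsPGroup p A) (hB : IsPGroup p B) (hti : ∀ a ∈ A, TIAt B a)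
    (hle : Nat.card A ≤ Nat.card B) (hAB : A ⊓ B = ⊥) (hN : B ≤ normalizer (A : Set G)) :
    ⁅A, B⁆ = ⊥ := by
  by_cases hAN : A ≤ normalizer (B : Set G)
  · exact eq_bot_iff.mpr (hAB ▸ le_inf (commutator_le_left_of_le_normalizer hN)
      (commutator_le_right_of_le_normalizer hAN))
  exfalso
  set A0 := A ⊓ normalizer (B : Set G) with hA0
  have h0 : A0 < A := lt_of_le_of_ne inf_le_left fun e => hAN (e ▸ inf_le_right)
  have hmem : ∀ a ∈ A, a ∈ A0 ⊔ B → a ∈ A0 := fun a ha h =>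
    ⟨ha, sup_le inf_le_right le_normalizer h⟩
  have h1 : A0 ⊔ B < A ⊔ B := lt_of_le_of_ne (sup_le_sup_right h0.le _) fun e =>
    h0.not_ge fun a ha => hmem a ha (e ▸ mem_sup_left ha)
  obtain ⟨x, hx, hx0⟩ := SetLike.exists_of_lt
    (H3.lt_inf_normalizer_of_lt (IsPGroup.to_sup_of_normal_left' hA hB hN) h1)
  obtain ⟨a, ha, b, hb, rfl⟩ := (mem_sup_iff_of_right_le_normalizer hN).mp hx.1
  have h2 : a ∈ normalizer ((A0 ⊔ B : Subgroup G) : Set G) :=
    (mul_mem_cancel_right (le_normalizer (mem_sup_right hb))).mp hx.2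
  have h3 : a ∉ normalizer (B : Set G) := fun e =>
    hx0 (mul_mem (mem_sup_left ⟨ha, e⟩) (mem_sup_right hb))
  have h4 := H2.card_mul_card_le (L := A0 ⊔ B) (conj_le_of_mem le_sup_right h2) le_sup_right
  rw [(hti a ha).inf_eq_bot h3, card_bot, mul_one, card_conj] at h4
  have h5 := Nat.le_of_dvd (Nat.mul_pos Nat.card_pos Nat.card_pos)
    (card_sup_dvd (H := A0) (N := B) inf_le_right)
  have h6 := Nat.le_of_mul_le_mul_right (h4.trans h5) Nat.card_pos
  exact absurd ((card_lt_of_lt h0).trans_le hle) (not_lt.mpr h6)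

/-- An element of 2-power order normalizing an abelian 2-group `B` with `C_B(a²) = C_B(a)`
centralizes `B`. -/
theorem cent_of_cent_sq [Finite G] {B : Subgroup G} (hB : IsPGroup 2 B)
    (hc : B ≤ centralizer (B : Set G)) {a : G} (ha : IsPGroup 2 (zpowers a))
    (hn : a ∈ normalizer (B : Set G)) (h : ∀ b ∈ B, a * a * b = b * (a * a) → a * b = b * a) :
    a ∈ centralizer (B : Set G) := by
  have hconj : ∀ b ∈ B, a * b * a⁻¹ ∈ B := fun b hb => (mem_normalizer_iff.mp hn b).mp hb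
  have hcm : ∀ x ∈ B, ∀ y ∈ B, x * y = y * x := fun x hx y hy => hc hy x hx
  let D : Subgroup G :=
    { carrier := {x | ∃ b ∈ B, x = b⁻¹ * (a * b * a⁻¹)}
      one_mem' := ⟨1, one_mem _, by simp⟩
      mul_mem' := by
        rintro _ _ ⟨b, hb, rfl⟩ ⟨c, hc, rfl⟩
        refine ⟨b * c, mul_mem hb hc, ?_⟩
        rw [← mul_assoc, hcm _ (mul_mem (inv_mem hb) (hconj b hb)) _ (inv_mem hc)]
        group
      inv_mem' := by
        rintro _ ⟨b, hb, rfl⟩
        refine ⟨b⁻¹, inv_mem hb, ?_⟩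
        rw [hcm _ (inv_mem hb) _ (hconj b hb)]
        group }
  have hDB : D ≤ B := by
    rintro _ ⟨b, hb, rfl⟩
    exact mul_mem (inv_mem hb) (hconj b hb)
  by_cases hD : D = ⊥
  · intro b hb
    have : b⁻¹ * (a * b * a⁻¹) ∈ D := ⟨b, hb, rfl⟩
    rw [hD, mem_bot, inv_mul_eq_one, eq_mul_inv_iff_mul_eq] at this
    exact this
  exfalso
  have hn' : zpowers a ≤ normalizer (D : Set G) := zpowers_le.mpr (mem_normalizer_of_conj_le (by
    rintro _ ⟨b, hb, rfl⟩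
    exact ⟨a * b * a⁻¹, hconj b hb, by group⟩))
  obtain ⟨c, hc, hp⟩ := H1.exists_prime_orderOf_mem
    (H1.inf_centralizer_ne_bot_of_isPGroup (hB.to_le hDB) ha hn' hD)
  obtain ⟨k, hk⟩ := IsPGroup.iff_orderOf.mp hB ⟨c, hDB hc.1⟩
  rw [Subgroup.orderOf_mk] at hk
  have h2 : orderOf c = 2 :=
    (Nat.prime_dvd_prime_iff_eq hp Nat.prime_two).mp (hp.dvd_of_dvd_pow hk.dvd)
  have h3 : c * c = 1 := by rw [← pow_two, ← h2, pow_orderOf_eq_one]
  have h4 : a * c = c * a := hc.2 a (mem_zpowers a)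
  obtain ⟨b, hb, hbc⟩ := hc.1
  have h5 : a * b = b * c * a := by rw [hbc]; group
  have h6 := h b hb (by
    rw [mul_assoc, h5, ← mul_assoc, ← mul_assoc, h5, mul_assoc (b * c), h4, ← mul_assoc,
      mul_assoc b, h3]
    group)
  rw [hbc, h6] at hp
  simp at hp
  exact Nat.not_prime_one hp

theorem exists_pow_not_mem_sq_mem {H : Subgroup G} {t : G} (ht : t ∉ H) {k : ℕ}
    (hk : t ^ 2 ^ k = 1) : ∃ n : ℕ, t ^ n ∉ H ∧ t ^ n * t ^ n ∈ H := by
  induction k generalizing t with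
  | zero => exact absurd (by rw [pow_zero, pow_one] at hk; rw [hk]; exact one_mem _) ht
  | succ k ih =>
    by_cases h : t * t ∈ H
    · exact ⟨1, by rwa [pow_one], by rwa [pow_one]⟩
    · obtain ⟨n, h1, h2⟩ := ih h (by rw [← pow_two, ← pow_mul, ← pow_succ']; exact hk)
      rw [← pow_two t, ← pow_mul] at h1 h2
      exact ⟨_, h1, h2⟩

/-- An invariant family of pairwise disjoint, non-elementary subgroups of equal order of a
2-group consists of pairwise commuting subgroups. -/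
theorem ti_family_comm [Finite G] {Δ : Set (Subgroup G)} {S : Subgroup G} (hS : IsPGroup 2 S)
    (hinv : ∀ s ∈ S, ∀ R ∈ Δ, R.map (MulAut.conj s).toMonoidHom ∈ Δ)
    (hΦ : ∀ R ∈ Δ, ∃ r ∈ R, r * r ≠ 1) (hord : ∀ R ∈ Δ, ∀ T ∈ Δ, Nat.card R = Nat.card T)
    (hti : ∀ R ∈ Δ, ∀ T ∈ Δ, R = T ∨ R ⊓ T = ⊥) {R T : Subgroup G} (hR : R ∈ Δ) (hT : T ∈ Δ)
    (hRS : R ≤ S) (hTS : T ≤ S) (hne : R ≠ T) : ⁅R, T⁆ = ⊥ := by
  induction S using WellFoundedLT.induction generalizing R T with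
  | _ S ih =>
  have hat : ∀ U ∈ Δ, ∀ s ∈ S, TIAt U s := fun U hU s hs => hti _ (hinv s hs U hU) _ hU
  have hc : ∀ U ∈ Δ, U ≤ S → ∀ s ∈ S, s ∉ normalizer (U : Set G) → ∀ x ∈ U, ∀ y ∈ U,
      x * (s * y * s⁻¹) = s * y * s⁻¹ * x := by
    intro U hU hUS s hs hsU x hx y hy
    obtain ⟨M, h1, h2, h3⟩ := (H2.subnormalIn_of_isNilpotent hS.isNilpotent hUS).exists_normal
      (fun e => hsU (le_normalizer (e ▸ hs)))
    have := ih M h2 (hS.to_le h2.le) (fun s hs => hinv s (h2.le hs)) hU (hinv s hs U hU) h1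
      (conj_le_of_mem h1 (h3 hs)) fun e => hsU (mem_normalizer_iff_conj_eq.mpr e.symm)
    exact commutator_eq_bot_iff_le_centralizer.mp this hx _ (conj_mem_conj s hy) |>.symm
  have hRT := (hti R hR T hT).resolve_left hne
  by_cases h1 : T ≤ normalizer (R : Set G)
  · exact ti_commutator_eq_bot (hS.to_le hRS) (hS.to_le hTS) (fun a ha => hat T hT a (hRS ha))
      (hord R hR T hT).le hRT h1
  by_cases h2 : R ≤ normalizer (T : Set G)
  · exact commutator_eq_bot_comm (ti_commutator_eq_bot (hS.to_le hTS) (hS.to_le hRS)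
      (fun a ha => hat R hR a (hTS ha)) (hord T hT R hR).le (by rwa [inf_comm]) h2)
  exfalso
  obtain ⟨t0, ht0, ht0n⟩ := SetLike.not_le_iff_exists.mp h1
  obtain ⟨k, hk⟩ := hS ⟨t0, hTS ht0⟩
  obtain ⟨n, htn, htt⟩ := exists_pow_not_mem_sq_mem ht0n (congrArg Subtype.val hk)
  set t := t0 ^ n
  have ht : t ∈ T := pow_mem ht0 n
  have hbot := (hat R hR t (hTS ht)).inf_eq_bot htn
  have hsq : ∀ r ∈ R, r ∉ normalizer (T : Set G) → r * r = 1 := by
    intro r hr hrn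
    have e1 := hc T hT hTS r⁻¹ (inv_mem (hRS hr)) (fun e => hrn (inv_mem_iff.mp e)) t ht t ht
    have e2 := hc R hR hRS t (hTS ht) htn r hr r hr
    have e3 : t * (r * r) * t⁻¹ = r * (t * t * r * (t * t)⁻¹) := by
      have e4 : t * t * r * (t * t)⁻¹ = t * (t * r * t⁻¹ * r⁻¹) * t⁻¹ * (t * r * t⁻¹) := by group
      have e5 : t * r * t⁻¹ * r⁻¹ = r⁻¹ * (t * r * t⁻¹) := by
        rw [eq_inv_mul_iff_mul_eq, ← mul_assoc, e2, mul_inv_cancel_right]
      have e6 : t * (r⁻¹ * (t * r * t⁻¹)) * t⁻¹ = r⁻¹ * (t * r * t⁻¹) := by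
        calc _ = t * (r⁻¹ * t * r⁻¹⁻¹) * t⁻¹ * t⁻¹ := by group
          _ = _ := by rw [e1]; group
      rw [e4, e5, e6]; group
    have e7 : t * (r * r) * t⁻¹ ∈ R.map (MulAut.conj t).toMonoidHom ⊓ R :=
      ⟨conj_mem_conj t (mul_mem hr hr), e3 ▸ mul_mem hr ((mem_normalizer_iff.mp htt r).mp hr)⟩
    rwa [hbot, mem_bot, conj_eq_one_iff] at e7
  obtain ⟨r, hr, hr1⟩ := hΦ R hR
  have hRne : R ≠ ⊥ := fun e => hr1 (by rw [e, mem_bot] at hr; rw [hr, one_mul])
  obtain ⟨z, hz, hz1⟩ := (bot_or_exists_ne_one _).resolve_left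
    (H1.inf_centralizer_ne_bot_of_isPGroup (hS.to_le hRS) (hS.to_le hRS) le_normalizer hRne)
  have hzn : z ∉ normalizer (T : Set G) := by
    intro hzn
    have e1 : z⁻¹ * (t * z * t⁻¹) ∈ T := by
      have := mul_mem ((mem_normalizer_iff.mp (inv_mem hzn) t).mp ht) (inv_mem ht)
      simpa only [inv_inv, mul_assoc] using this
    have e2 : z⁻¹ * (t * z * t⁻¹) ≠ 1 := fun e => by
      have e3 : t * z * t⁻¹ ∈ R.map (MulAut.conj t).toMonoidHom ⊓ R :=
        ⟨conj_mem_conj t hz.1, (inv_mul_eq_one.mp e) ▸ hz.1⟩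
      rw [hbot, mem_bot, conj_eq_one_iff] at e3
      exact hz1 e3
    refine h2 fun x hx => (hat T hT x (hRS hx)).mem_normalizer_of_comm e1 e2 ?_
    rw [← mul_assoc, (inv_mem hz.2 : z⁻¹ ∈ centralizer (R : Set G)) x hx, mul_assoc,
      hc R hR hRS t (hTS ht) htn x hx z hz.1, ← mul_assoc]
  have hrn : r ∈ normalizer (T : Set G) := by_contra fun e => hr1 (hsq r hr e)
  have e1 := hsq _ (mul_mem hz.1 hr) fun e => hzn ((mul_mem_cancel_right hrn).mp e)
  rw [← mul_assoc, mul_assoc z r, hz.2 r hr, ← mul_assoc, hsq z hz.1 hzn, one_mul] at e1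
  exact hr1 e1

end Cfsg.Agent.H10
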